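import Cfsg.Agent.H97.JmDefs
import Cfsg.Agent.H33.J4Odd1

/-! A small class of the central involution forces the normaliser of the Sylow 11-subgroup. -/

set_option autoImplicit false

namespace Cfsg.Agent.H97.JM

open Subgroup Cfsg.Agent.H33.J4O

universe u

theorem pED : ED.{u} := by
  intro G _ _ hG z x Q U D H hH hc h hh
  have : Fact (Nat.Prime 11) := ⟨by norm_num⟩
  have hUH : (U : Subgroup G) ≤ H := le_normalizer.trans hH
  have hxc : Nat.card (zpowers x) = 11 := by rw [Nat.card_zpowers, D.x11]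
  have hUz : (U : Subgroup G) ⊓ centralizer ({z} : Set G) = zpowers x :=
    le_antisymm (fun v hv => D.Uz v hv.1 (mcs.1 hv.2))
      ((zpowers_le).2 ⟨D.xU, mcs.2 D.xz⟩)
  have o1 := card_orbit H z
  have o2 := card_orbit (U : Subgroup G) z
  rw [hUz, hxc, (hG.n11 U).1] at o2
  rw [hc] at o1
  have o1 := Nat.eq_of_mul_eq_mul_right Nat.card_pos o1
  have e : {b | ∃ h ∈ (U : Subgroup G), h * z * h⁻¹ = b} = {b | ∃ h ∈ H, h * z * h⁻¹ = b} :=
    Set.eq_of_subset_of_ncard_le (fun b ⟨k, hk, e⟩ => ⟨k, hUH hk, e⟩) (by omega)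
  have A : ∀ k ∈ H, Commute x (k * z * k⁻¹) := fun k hk => by
    obtain ⟨u, hu, e'⟩ := (Set.ext_iff.1 e (k * z * k⁻¹)).2 ⟨k, hk, rfl⟩
    have c : Commute x u := (D.Ux u hu).symm
    rw [← e']
    exact (c.mul_right D.xz).mul_right c.inv_right
  have B : ∀ k ∈ H, Commute (h * x * h⁻¹) (k * z * k⁻¹) := fun k hk => by
    have := (A _ (mul_mem (inv_mem hh) hk)).map (MulAut.conj h)
    simp only [MulAut.conj_apply] at this
    convert this using 1
    group
  have B1 : Commute (h * x * h⁻¹) z := by simpa using B 1 (one_mem _)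
  obtain ⟨u, hu, hux⟩ : ∃ u ∈ (U : Subgroup G), u ∉ zpowers x := by
    by_contra! k
    have := card_le_of_le (show (U : Subgroup G) ≤ zpowers x from k)
    rw [hxc, (hG.n11 U).1] at this
    omega
  have zz : z * z = 1 := by rw [← sq, ← D.z2, pow_orderOf_eq_one]
  have zi : z⁻¹ = z := inv_eq_of_mul_eq_one_right zz
  have zN : z ∈ normalizer ((U : Subgroup G) : Set G) := by
    rw [D.nU]
    exact mem_norm_zp (by rw [← D.xz, mul_inv_cancel_right]; exact mem_zpowers x)
  have wU : z * (u * z * u⁻¹) ∈ (U : Subgroup G) := by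
    have := mul_mem (norm_mem zN hu) (inv_mem hu)
    rw [zi] at this
    simpa only [mul_assoc] using this
  have w1 : z * (u * z * u⁻¹) ≠ 1 := fun k => hux (D.Uz u hu (by
    have := (inv_eq_of_mul_eq_one_right k).symm
    rw [zi] at this
    exact mul_inv_eq_iff_eq_mul.1 this))
  have cw : Commute (h * x * h⁻¹) (z * (u * z * u⁻¹)) := B1.mul_right (B u (hUH hu))
  have p1 : IsPGroup 11 (zpowers (h * x * h⁻¹)) :=
    IsPGroup.of_card (n := 1) (by rw [Nat.card_zpowers, orderOf_cj, D.x11, pow_one])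
  have p2 : IsPGroup 11 (zpowers (z * (u * z * u⁻¹))) := U.isPGroup'.to_le (zpowers_le.2 wU)
  obtain ⟨U', hU'⟩ := (p1.to_sup_of_normal_right' p2 (zpowers_le.2 (mem_norm_zp (by
    rw [cw.eq, mul_inv_cancel_right]; exact mem_zpowers _)))).exists_le_sylow
  have := hG.ti U U' fun k => w1 (mem_bot.1 (k ▸ ⟨wU, hU' (mem_sup_right (mem_zpowers _))⟩))
  subst this
  rw [D.nU]
  exact mem_norm_zp (D.Uz _ (hU' (mem_sup_left (mem_zpowers _))) B1)

end Cfsg.Agent.H97.JM
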