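import Cfsg.Agent.H41.JU3Defs
import Mathlib.Tactic

/-!
# Classes of the extraspecial group of order 27 under `3^{1+2}:8`, and its normaliser on the centre
-/

set_option autoImplicit false
set_option linter.unusedSimpArgs false

namespace Cfsg.Agent.H41.JU3

open Subgroup

universe u

namespace Cls

variable {G : Type u} [Group G] {x y v w : G}

theorem yx (h : Rel x y v w) : y * x = x * y := h.xy.symm
theorem vx (h : Rel x y v w) : v * x = x * v := h.xv.symm
theorem vy (h : Rel x y v w) : v * y = x * (y * v) := by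
  rw [h.vy, mul_assoc, vx h, ← mul_assoc, yx h, mul_assoc]
theorem yx' (h : Rel x y v w) (t : G) : y * (x * t) = x * (y * t) := by
  rw [← mul_assoc, yx h, mul_assoc]
theorem vx' (h : Rel x y v w) (t : G) : v * (x * t) = x * (v * t) := by
  rw [← mul_assoc, vx h, mul_assoc]
theorem vy' (h : Rel x y v w) (t : G) : v * (y * t) = x * (y * (v * t)) := by
  rw [← mul_assoc, vy h]; simp only [mul_assoc]
theorem cube {a : G} (h : a ^ 3 = 1) : a * (a * a) = 1 := by
  rw [← h, pow_succ, pow_two, mul_assoc]
theorem cube' {a : G} (h : a ^ 3 = 1) (t : G) : a * (a * (a * t)) = t := by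
  rw [← mul_assoc, ← mul_assoc, mul_assoc a a a, cube h, one_mul]

theorem cx (h : Rel x y v w) : MulAut.conj w x = x * x := by
  rw [MulAut.conj_apply, h.wx, pow_two, mul_inv_cancel_right]
theorem cy (h : Rel x y v w) : MulAut.conj w y = v := by
  rw [MulAut.conj_apply, h.wy, mul_inv_cancel_right]
theorem cv (h : Rel x y v w) : MulAut.conj w v = x * (x * (y * v)) := by
  rw [MulAut.conj_apply, h.wv, mul_inv_cancel_right]
  simp only [pow_two, mul_assoc, yx h, vx h, yx' h, vx' h]

/-- conjugate in `B` to `x` or `y` -/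
def P (x y v w g : G) : Prop := ∃ b ∈ BB x y v w, b * g * b⁻¹ = x ∨ b * g * b⁻¹ = y

theorem P_conj {g b : G} (hb : b ∈ BB x y v w) (h : P x y v w g) : P x y v w (b * g * b⁻¹) := by
  obtain ⟨c, hc, e⟩ := h
  refine ⟨c * b⁻¹, mul_mem hc (inv_mem hb), ?_⟩
  have : c * b⁻¹ * (b * g * b⁻¹) * (c * b⁻¹)⁻¹ = c * g * c⁻¹ := by group
  rw [this]; exact e

theorem wB : w ∈ BB x y v w := subset_closure (by simp)
theorem vB : v ∈ BB x y v w := subset_closure (by simp)

/-- the whole coset -/
def T (x y v w g : G) : Prop := ∀ a : ℕ, P x y v w (x ^ a * g)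

theorem T_of (h : Rel x y v w) {g : G} (k : ℕ) (hT : T x y v w (x ^ k * g)) : T x y v w g := by
  intro a
  have := hT (a + 2 * k)
  rwa [← mul_assoc, ← pow_add, show a + 2 * k + k = a + 3 * k by ring, pow_add, pow_mul, h.x3,
    one_pow, mul_one] at this

theorem T_w (h : Rel x y v w) {g g' : G} (k : ℕ) (hT : T x y v w g)
    (e : MulAut.conj w g = x ^ k * g') : T x y v w g' := by
  refine T_of h k fun a => ?_
  have := P_conj (wB (x := x) (y := y) (v := v) (w := w)) (hT (2 * a))
  rw [← MulAut.conj_apply, map_mul, map_pow, cx h, e, ← pow_two, ← pow_mul,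
    show 2 * (2 * a) = a + 3 * a by ring, pow_add, pow_mul, h.x3, one_pow, mul_one] at this
  exact this

theorem T_y (h : Rel x y v w) : T x y v w y := by
  intro a
  induction a with
  | zero => exact ⟨1, one_mem _, Or.inr (by simp)⟩
  | succ a ih =>
    have := P_conj (vB (x := x) (y := y) (v := v) (w := w)) ih
    have c : Commute v (x ^ a) := (Commute.pow_right (vx h) a)
    have e : v * (x ^ a * y) * v⁻¹ = x ^ (a + 1) * y := by
      rw [← mul_assoc, c.eq, mul_assoc (x ^ a), vy h, pow_succ]; group
    rwa [e] at this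

end Cls

open Cls in
theorem pCLS (hNF : NF.{u}) : CLS.{u} := by
  intro G _ x y v w h g hg g1
  obtain ⟨a, b, c, ha, hb, hc, rfl⟩ := hNF G x y v w h g hg
  have t1 := T_y h
  have t2 : T x y v w v := T_w h 0 t1 (by simp [cy h, -MulAut.conj_apply])
  have t3 : T x y v w (y * v) := T_w h 2 t2 (by rw [cv h, pow_two, mul_assoc])
  have t4 : T x y v w (y * (v * v)) := T_w h 0 t3 (by
    simp only [map_mul, cy h, cv h, pow_zero, one_mul, mul_assoc, vx' h, vy' h, cube' h.x3])
  have t5 : T x y v w (y * y) := T_w h 1 t4 (by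
    simp only [map_mul, cy h, cv h, pow_one, mul_one, mul_assoc, vx' h, vy' h, yx' h, cube' h.x3,
      cube h.v3])
  have t6 : T x y v w (v * v) := T_w h 0 t5 (by simp only [map_mul, cy h, pow_zero, one_mul])
  have t7 : T x y v w (y * (y * (v * v))) := T_w h 2 t6 (by
    simp only [map_mul, cy h, cv h, pow_two, mul_one, mul_assoc, vx' h, vy' h, yx' h, cube' h.x3,
      cube h.v3])
  have t8 : T x y v w (y * (y * v)) := T_w h 0 t7 (by
    simp only [map_mul, cy h, cv h, pow_zero, one_mul, mul_one, mul_assoc, vx' h, vy' h, yx' h,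
      cube' h.x3, cube' h.v3])
  change P x y v w _
  interval_cases b <;> interval_cases c
  · interval_cases a
    · simp at g1
    · exact ⟨1, one_mem _, Or.inl (by simp)⟩
    · have := P_conj (wB (x := x) (y := y) (v := v) (w := w))
        (⟨1, one_mem _, Or.inl (by simp)⟩ : P x y v w x)
      rw [← MulAut.conj_apply, cx h] at this
      simpa [pow_two] using this
  · simpa [mul_assoc, pow_two] using t2 a
  · simpa [mul_assoc, pow_two] using t6 a
  · simpa [mul_assoc, pow_two] using t1 a
  · simpa [mul_assoc, pow_two] using t3 a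
  · simpa [mul_assoc, pow_two] using t4 a
  · simpa [mul_assoc, pow_two] using t5 a
  · simpa [mul_assoc, pow_two] using t8 a
  · simpa [mul_assoc, pow_two] using t7 a

open Cls in
theorem pNRM (hNF : NF.{u}) : NRM.{u} := by
  intro G _ _ x y v w h g hg
  have hRx : RR x y v ≤ centralizer ({x} : Set G) := by
    rw [RR, closure_le]
    intro t ht
    simp only [Set.mem_insert_iff, Set.mem_singleton_iff] at ht
    rw [SetLike.mem_coe, mem_centralizer_singleton_iff]
    rcases ht with rfl | rfl | rfl
    · rfl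
    · exact h.xy.symm
    · exact h.xv.symm
  have xR : x ∈ RR x y v := subset_closure (by simp)
  have yR : y ∈ RR x y v := subset_closure (by simp)
  have vR : v ∈ RR x y v := subset_closure (by simp)
  have com : ∀ t ∈ RR x y v, t * (g * x * g⁻¹) = (g * x * g⁻¹) * t := by
    intro t ht
    have h1 : g⁻¹ * t * g ∈ RR x y v := (mem_normalizer_iff''.1 hg t).1 ht
    have h2 := mem_centralizer_singleton_iff.1 (hRx h1)
    calc t * (g * x * g⁻¹) = g * (g⁻¹ * t * g * x) * g⁻¹ := by group
      _ = g * (x * (g⁻¹ * t * g)) * g⁻¹ := by rw [h2]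
      _ = _ := by group
  obtain ⟨a, b, c, ha, hb, hc, e⟩ := hNF G x y v w h _ ((mem_normalizer_iff.1 hg x).1 xR)
  have x1 := h.x1
  have x2 : x * x ≠ 1 := fun e2 => x1 (by have := cube h.x3; rwa [e2, mul_one] at this)
  have cy' := com y yR
  have cv' := com v vR
  rw [e] at cy' cv'
  have ca : ∀ t : G, t * x = x * t → ∀ r : G, t * (x ^ a * r) = x ^ a * (t * r) := by
    intro t ht r
    rw [← mul_assoc, (Commute.pow_right ht a).eq, mul_assoc]
  rw [mul_assoc, ca y (yx h), mul_assoc, mul_right_inj, ← mul_assoc, ← pow_succ', pow_succ,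
    mul_assoc, mul_assoc, mul_right_inj] at cy'
  have hc0 : c = 0 := by
    interval_cases c
    · rfl
    · rw [pow_one, vy h] at cy'
      exact absurd (by simpa using cy') x1
    · rw [pow_two, mul_assoc, vy h, vx' h, vy' h, ← mul_assoc x] at cy'
      exact absurd (by simpa using cy') x2
  subst hc0
  rw [pow_zero, mul_one, ca v (vx h), mul_assoc, mul_right_inj] at cv'
  have hb0 : b = 0 := by
    interval_cases b
    · rfl
    · rw [pow_one, vy h] at cv'
      exact absurd (by simpa using cv') x1
    · rw [pow_two, vy' h, vy h, yx' h, ← mul_assoc x, mul_assoc y] at cv'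
      exact absurd (by simpa using cv') x2
  subst hb0
  simp only [pow_zero, mul_one] at e
  interval_cases a
  · exfalso
    apply x1
    have : x = g⁻¹ * (g * x * g⁻¹) * g := by group
    rw [this, e]; simp
  · left
    rw [pow_one] at e
    exact mul_inv_eq_iff_eq_mul.1 e
  · right
    have e2 : g * x = x * (x * g) := by rw [mul_inv_eq_iff_eq_mul.1 e, pow_two, mul_assoc]
    have wx : ∀ t : G, w * (x * t) = x * (x * (w * t)) := by
      intro t; rw [← mul_assoc, h.wx, pow_two]; simp only [mul_assoc]
    rw [mul_assoc, e2, wx, wx, cube' h.x3]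

end Cfsg.Agent.H41.JU3
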