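import Cfsg.Agent.H18.RfSc

/-! Project RF: the normalizer of `U` and `Ew` moves `Q ⊓ C(w)`. -/

set_option autoImplicit false

namespace Cfsg.Agent.H18.Rf.K1

open Cfsg Subgroup Cfsg.Agent.H18.MaxOff
open Cfsg.Agent.H49 (XS)

universe u

variable {G : Type u} [Group G]

theorem syl0 [Finite G] {L A : Subgroup G} (hA : IsPGroup 2 A) (hAL : A ≤ L) :
    ∃ R : Subgroup G, IsPGroup 2 R ∧ A ≤ R ∧ R ≤ L ∧
      ∀ B : Subgroup G, IsPGroup 2 B → B ≤ L → ∃ l ∈ L, cj l B ≤ R := by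
  have : Fact (Nat.Prime 2) := ⟨Nat.prime_two⟩
  have hA' : IsPGroup 2 (A.subgroupOf L) := hA.comap_subtype
  obtain ⟨R, hR⟩ := hA'.exists_le_sylow
  refine ⟨(R : Subgroup L).map L.subtype, R.isPGroup'.map _,
    fun x hx => ⟨⟨x, hAL hx⟩, hR (mem_subgroupOf.2 hx), rfl⟩, map_subtype_le _, fun B hB hBL => ?_⟩
  have hB' : IsPGroup 2 (B.subgroupOf L) := hB.comap_subtype
  obtain ⟨R', hR'⟩ := hB'.exists_le_sylow
  obtain ⟨n, hn⟩ := MulAction.exists_smul_eq L R' R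
  refine ⟨n, n.2, fun x hx => ?_⟩
  rw [mem_cj] at hx
  have hxN : x ∈ L := by
    have := L.mul_mem (L.mul_mem n.2 (hBL hx)) (L.inv_mem n.2)
    simpa [mul_assoc] using this
  refine ⟨⟨x, hxN⟩, ?_, rfl⟩
  have h1 : (n⁻¹ * ⟨x, hxN⟩ * n : L) ∈ (R' : Subgroup L) := hR' (mem_subgroupOf.2 hx)
  rw [← hn]
  show _ ∈ ((n • R' : Sylow 2 L) : Subgroup L)
  rw [Sylow.coe_subgroup_smul, Subgroup.mem_pointwise_smul_iff_inv_smul_mem]
  simpa [mul_assoc] using h1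

theorem syl [Finite G] {L A B : Subgroup G} (hA : IsPGroup 2 A) (hAL : A ≤ L)
    (hm : ∀ R : Subgroup G, IsPGroup 2 R → R ≤ L → Nat.card R ≤ Nat.card A)
    (hB : IsPGroup 2 B) (hBL : B ≤ L) : ∃ l ∈ L, cj l B ≤ A := by
  obtain ⟨R, h1, h2, h3, h4⟩ := syl0 hA hAL
  rw [eq_of_le_of_card_ge h2 (hm R h1 h3)]
  exact h4 B hB hBL

theorem pg_cj {A : Subgroup G} (hA : IsPGroup 2 A) (g : G) : IsPGroup 2 (cj g A) := hA.map _

theorem cj_le {L A : Subgroup G} {g : G} (hg : g ∈ L) (hA : A ≤ L) : cj g A ≤ L := fun x hx => by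
  have := L.mul_mem (L.mul_mem hg (hA (mem_cj.1 hx))) (L.inv_mem hg)
  simpa [mul_assoc] using this

theorem cjm {L : Subgroup G} {g x : G} (hg : g ∈ L) (hx : x ∈ L) : g⁻¹ * x * g ∈ L :=
  L.mul_mem (L.mul_mem (L.inv_mem hg) hx) hg

theorem mem_cj' {A : Subgroup G} {g x : G} (hx : x ∈ A) : g * x * g⁻¹ ∈ cj g A :=
  mem_cj.2 (by simpa [mul_assoc] using hx)

theorem cw {z w h x : G} (hU : h ∈ NN (UU z w)) (hz : x ∈ C1 z) (hw : x ∈ C1 w) :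
    h⁻¹ * x * h ∈ C1 w := by
  have h1 : UU z w ≤ C1 x := (closure_le _).2 (by
    rintro _ (rfl | rfl)
    · exact mem_centralizer_singleton_iff.2 (mem_centralizer_singleton_iff.1 hz).symm
    · exact mem_centralizer_singleton_iff.2 (mem_centralizer_singleton_iff.1 hw).symm)
  have h2 := mem_centralizer_singleton_iff.1
    (h1 ((mem_normalizer_iff.1 hU w).1 (subset_closure (by simp))))
  rw [mem_centralizer_singleton_iff]
  calc h⁻¹ * x * h * w = h⁻¹ * (x * (h * w * h⁻¹)) * h := by group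
    _ = w * (h⁻¹ * x * h) := by rw [← h2]; group

/-- conjugation of a commutator condition -/
theorem cm_cj {U : Subgroup G} {h x y : G} (hU : h ∈ NN U)
    (e : x * (h * y * h⁻¹) * x⁻¹ * (h * y * h⁻¹)⁻¹ ∈ U) :
    (h⁻¹ * x * h) * y * (h⁻¹ * x * h)⁻¹ * y⁻¹ ∈ U := by
  have := (mem_normalizer_iff''.1 hU _).1 e
  simpa [mul_assoc] using this

theorem main [Finite G] {V Q W T : Subgroup G} {z w c : G} (lc : LC V z Q W) (wq : WQ Q z)
    (hwQ : w ∈ Q) (ek : Ek V z Q W w) (hT : T ≤ MM V z ⊓ NN (UU z w)) (cT : Nat.card T = 2 ^ 21)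
    (hc : c ∈ C1 z) (hw1 : w ∈ cj c Q) (hYE : cj c Q ⊓ C1 w ≤ Ew V z Q w)
    (hYQ : ¬ cj c Q ⊓ C1 w ≤ Q) (hXN : Q ⊓ C1 w ≤ NN (cj c Q)) :
    ¬ H2 V z Q w ≤ NN (Q ⊓ C1 w) := by
  intro hcon
  have : Fact (Nat.Prime 2) := ⟨Nat.prime_two⟩
  set U := UU z w with hUdef
  set E := Ew V z Q w with hEdef
  set X := Q ⊓ C1 w with hXdef
  set Q1 := cj c Q with hQ1
  set Y := Q1 ⊓ C1 w with hYdef
  let H : Subgroup G := C1 z ⊓ NN U
  have pT : IsPGroup 2 T := IsPGroup.of_card cT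
  have hTH : T ≤ H := fun x hx => ⟨(hT hx).1.2, (hT hx).2⟩
  have hTQ : T ≤ NN Q := fun x hx => lc.mq (hT hx).1
  have two : ∀ {L : Subgroup G}, L ≤ H → ∀ g : G, ∀ R : Subgroup G, IsPGroup 2 R → R ≤ L →
      Nat.card R ≤ Nat.card (cj g T) := fun hL g R hR h => by
    rw [card_cj, cT]
    exact ek.two R hR fun x hx => (hL (h hx)).1
  have two' : ∀ {L : Subgroup G}, L ≤ H → ∀ R : Subgroup G, IsPGroup 2 R → R ≤ L →
      Nat.card R ≤ Nat.card T := fun hL R hR h => by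
    simpa [cj_one] using two hL 1 R hR h
  have xs1 : XS Q1 z := by
    have := lc.xs.map_conj c
    rwa [mem_centralizer_singleton_iff.1 hc, mul_inv_cancel_right] at this
  have hww : w ∈ C1 w := mem_centralizer_singleton_iff.2 rfl
  have hzw : z ∈ C1 w := mem_centralizer_singleton_iff.2 (lc.xs.cen w hwQ).symm
  have hUX : U ≤ X := (closure_le _).2 (by
    rintro _ (rfl | rfl)
    · exact ⟨lc.xs.mem, hzw⟩
    · exact ⟨hwQ, hww⟩)
  have hUY : U ≤ Y := (closure_le _).2 (by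
    rintro _ (rfl | rfl)
    · exact ⟨xs1.mem, hzw⟩
    · exact ⟨hw1, hww⟩)
  have hzU : z ∈ U := subset_closure (by simp)
  have hQ1H : Q1 ≤ H := fun x hx => ⟨xs1.le_centralizer hx, mem_norm_of_le fun a ha =>
    xs1.conj_mem_of_z_mem (hUY.trans inf_le_left) hzU hx ha⟩
  have hQH : Q ≤ H := fun x hx => (ek.qh hx).1
  have hEH : E ≤ H := fun x hx => (ek.ab hx).1.1.1
  have hEE : ∀ x ∈ E, ∀ y ∈ E, x * y * x⁻¹ * y⁻¹ ∈ U := fun x hx y hy => (ek.ab hx).2.2 y hy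
  have hXE : X ≤ E := ek.xe
  -- first conjugation
  obtain ⟨l, hl, hl1⟩ := syl pT hTH (two' le_rfl) xs1.isPGroup hQ1H
  have hl2 : cj l⁻¹ Q = Q1 := by
    have := wq (l * c) (mul_mem hl.1 hc) (by rw [← cj_cj]; exact hl1.trans hTQ)
    rw [← this, cj_cj, inv_mul_cancel_left]
  have hE0 : X ⊔ Y ≤ E := sup_le hXE hYE
  obtain ⟨l', hl', hl3⟩ := syl (L := H ⊓ NN Q1) (B := X ⊔ Y) (pg_cj pT l⁻¹)
    (le_inf (cj_le (inv_mem hl) hTH) (by rw [← hl2, NN, ← cj_norm]; exact cj_mono _ hTQ))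
    (two inf_le_left _) (ek.p2.to_le hE0)
    (le_inf (hE0.trans hEH) (sup_le hXN (inf_le_left.trans le_normalizer)))
  obtain ⟨h, hH, hh1, hh2⟩ : ∃ h ∈ H, cj h Q = Q1 ∧ X ⊔ Y ≤ cj h T := by
    refine ⟨l'⁻¹ * l⁻¹, mul_mem (inv_mem hl'.1) (inv_mem hl), ?_, ?_⟩
    · rw [← cj_cj, hl2]
      exact mem_norm_iff.1 (inv_mem hl'.2)
    · have := cj_mono l'⁻¹ hl3
      rwa [cj_cj, cj_cj, inv_mul_cancel, cj_one] at this
  have hY : cj h X = Y := by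
    ext x
    rw [mem_cj, hYdef, ← hh1, mem_inf, mem_inf, mem_cj]
    refine and_congr_right fun hx => ⟨fun h1 => ?_, fun h1 => ?_⟩
    · simpa [mul_assoc] using cw (inv_mem hH.2) (hQH hx).1 h1
    · refine cw hH.2 ?_ h1
      simpa [mul_assoc] using cjm (inv_mem hH.1) (hQH hx).1
  have hE1 : X ⊔ Y ≤ cj h E := by
    refine sup_le (fun x hx => mem_cj.2 ⟨⟨(hT (mem_cj.1 (hh2 (mem_sup_left hx)))).1,
      cw hH.2 (hQH hx.1).1 hx.2⟩, cjm hH.2 (hQH hx.1).2, fun y hy => ?_⟩) ?_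
    · exact cm_cj hH.2 (hEE _ (hXE hx) _ (hYE (hY ▸ mem_cj' hy)))
    · rw [← hY]
      exact cj_mono _ hXE
  let K : Subgroup G := C1 z ⊓ C1 w ⊓ CM (X ⊔ Y : Subgroup G) U
  let N1 : Subgroup G := H ⊓ NN (X ⊔ Y)
  have hEK : E ≤ K := fun x hx => ⟨⟨(hEH hx).1, hx.1.2⟩, (hEH hx).2, fun y hy => hEE _ hx _ (hE0 hy)⟩
  have hE1K : cj h E ≤ K := by
    intro x hx
    have h1 := mem_cj.1 hx
    have h2 := cj_le hH hEH hx
    refine ⟨⟨h2.1, ?_⟩, h2.2, fun y hy => ?_⟩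
    · simpa [mul_assoc] using cw (inv_mem hH.2) (hEH h1).1 h1.1.2
    · have := (mem_normalizer_iff.1 hH.2 _).1 (hEE _ h1 _ (mem_cj.1 (hE1 hy)))
      simpa [mul_assoc] using this
  have hKN : K ≤ N1 := fun x hx => ⟨⟨hx.1.1, hx.2.1⟩, mem_norm_of_le fun a ha => by
    simpa using (X ⊔ Y).mul_mem (mem_sup_left (hUX (hx.2.2 a ha))) ha⟩
  have hNK : ∀ n ∈ N1, ∀ x ∈ K, n⁻¹ * x * n ∈ K := fun n hn x hx =>
    ⟨⟨cjm hn.1.1 hx.1.1, cw hn.1.2 hx.1.1 hx.1.2⟩, cjm hn.1.2 hx.2.1, fun y hy =>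
      cm_cj hn.1.2 (hx.2.2 _ ((mem_normalizer_iff.1 hn.2 y).1 hy))⟩
  have hQN : Q ≤ N1 := by
    intro t ht
    refine ⟨hQH ht, mem_norm_iff.2 (eq_of_le_of_card_ge ?_ (by rw [card_cj]))⟩
    rw [cj, Subgroup.map_sup]
    refine sup_le ?_ ?_
    · rintro _ ⟨x, hx, rfl⟩
      exact mem_sup_left (lc.xs.conj_mem_of_z_mem inf_le_left (hUX hzU) ht hx)
    · rintro _ ⟨y, hy, rfl⟩
      have h1 : t * y * t⁻¹ * y⁻¹ ∈ X := by
        refine ⟨?_, (C1 w).mul_mem ?_ ((C1 w).inv_mem hy.2)⟩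
        · have := Q.mul_mem ht ((mem_normalizer_iff.1 (lc.mq (hYE hy).1.1) _).1 (Q.inv_mem ht))
          simpa [mul_assoc] using this
        · simpa using cw (inv_mem (hQH ht).2) (hQ1H hy.1).1 hy.2
      simpa using (X ⊔ Y).mul_mem (mem_sup_left h1) (mem_sup_right hy)
  obtain ⟨R, pR, hQR, hRN, hR⟩ := syl0 lc.xs.isPGroup hQN
  have hRQ : R ≤ NN Q := ek.qn R pR (fun x hx => (hRN hx).1.1) hQR
  obtain ⟨n, hn, hn1⟩ := syl (L := H ⊓ NN Q) pT (le_inf hTH hTQ) (two' inf_le_left) pR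
    (le_inf (hRN.trans inf_le_left) hRQ)
  have hmax : ∀ S : Subgroup G, IsPGroup 2 S → S ≤ K → Nat.card S ≤ Nat.card E := by
    intro S pS hS
    obtain ⟨m, hm, hm1⟩ := hR S pS (hS.trans hKN)
    rw [← card_cj m S, ← card_cj n]
    refine card_le_of_le fun x hx => ?_
    have h1 := mem_cj.1 hx
    have h2 : n⁻¹ * x * n ∈ K := by
      simpa [mul_assoc] using hNK _ (inv_mem hm) _ (hS (mem_cj.1 h1))
    have h3 := hT (hn1 (mem_cj.2 (hm1 h1)))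
    refine ⟨⟨h3.1, ?_⟩, h3.2, fun y hy => ?_⟩
    · simpa [mul_assoc] using cw (inv_mem hn.1.2) h2.1.1 h2.1.2
    · have h4 : n⁻¹ * y * n ∈ X :=
        ⟨(mem_normalizer_iff''.1 hn.2 y).1 hy.1, cw hn.1.2 (hQH hy.1).1 hy.2⟩
      have := (mem_normalizer_iff.1 hn.1.2 _).1 (h2.2.2 _ (mem_sup_left h4))
      simpa [mul_assoc] using this
  obtain ⟨k, hk, hk1⟩ := syl ek.p2 hEK hmax (pg_cj ek.p2 h) hE1K
  rw [cj_cj] at hk1
  have h5 := mem_norm_iff.1 (hcon (x := k * h) ⟨mul_mem (hKN hk).1 hH,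
    mem_norm_iff.2 (eq_of_le_of_card_ge hk1 (by rw [card_cj]))⟩)
  have h6 : cj k Y = Y := mem_norm_iff.1 (mem_norm_of_le fun a ha => by
    simpa using Y.mul_mem (hUY (hk.2.2 a (mem_sup_right ha))) ha)
  rw [← cj_cj, hY, h6] at h5
  exact hYQ (h5.le.trans inf_le_left)

theorem k1 : K1Stmt.{u} := by
  intro G _ _ V ρ ψ O Q W gs wq w hw hz ek c hc h1 h2 h3 h4
  obtain ⟨T, hT, cT⟩ := gs.lg.e4 w hw hz
  exact main gs.lc wq (by rw [← gs.lc.qv] at hw; exact hw.1) ek hT cT hc h1 h2 h3 h4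

end Cfsg.Agent.H18.Rf.K1
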